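import Cfsg.Prelude.Def_Sporadic
import Cfsg.Prelude.Def_KGroupFacts
import Cfsg.Agent.H16.Fi22Order

/-!
Central extensions of the presented Fi22 generated by lifts of its generators.
-/

set_option autoImplicit false

namespace Cfsg.Agent.H55.Fi22M

open Cfsg.Spor

/-- The word `a b c d e f h`. -/
def wordE7 : List Fi22.Gen := [.a, .b, .c, .d, .e, .f, .h]

/-- The word `b c d e f g h`. -/
def wordE7' : List Fi22.Gen := [.b, .c, .d, .e, .f, .g, .h]

/-- The spider word `d c b d e f d h i`. -/
def wordSpider : List Fi22.Gen := [.d, .c, .b, .d, .e, .f, .d, .h, .i]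

theorem extra_eq {G : Type*} [Group G] (f : Fi22.Gen → G) :
    Fi22.extra.map (FreeGroup.lift f) =
      [(wordSpider.map f).prod ^ 10, (wordE7.map f).prod ^ 9, (wordE7'.map f).prod ^ 9] := by
  simp [Fi22.extra, wordE7, wordE7', wordSpider, mul_assoc]

/-- Lifts of the generators of Fi22 with the relations holding modulo a central element. -/
structure CoverGens (G : Type) [Group G] where
  f : Fi22.Gen → G
  z : G
  p : ℕ
  hp : p.Prime
  z_pow : z ^ p = 1
  z_ne : z ≠ 1
  z_comm : ∀ x, z * f x = f x * z
  z_mem : z ∈ Subgroup.closure (Set.range f)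
  cox : ∀ x y, (f x * f y) ^ coxLabel Fi22.edges x y = 1
  e7 : (wordE7.map f).prod ^ 9 = 1
  e7' : (wordE7'.map f).prod ^ 9 ∈ Subgroup.zpowers z
  spider : (wordSpider.map f).prod ^ 10 ∈ Subgroup.zpowers z
  ab_ne : f .a * f .b ≠ f .b * f .a

namespace CoverGens

variable {G : Type} [Group G] (D : CoverGens G)

/-- The covering group. -/
abbrev Gam : Subgroup G := Subgroup.closure (Set.range D.f)

/-- A generator in the covering group. -/
def gen (x : Fi22.Gen) : D.Gam := ⟨D.f x, Subgroup.subset_closure ⟨x, rfl⟩⟩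

/-- The central element in the covering group. -/
def zz : D.Gam := ⟨D.z, D.z_mem⟩

theorem zz_central : Subgroup.zpowers D.zz ≤ Subgroup.center D.Gam := by
  rw [Subgroup.zpowers_le, Subgroup.mem_center_iff]
  intro g
  have : D.Gam ≤ Subgroup.centralizer {D.z} := by
    rw [Subgroup.closure_le]
    rintro _ ⟨x, rfl⟩
    simp only [SetLike.mem_coe, Subgroup.mem_centralizer_singleton_iff]
    exact (D.z_comm x).symm
  apply Subtype.ext
  exact Subgroup.mem_centralizer_singleton_iff.mp (this g.2)

instance : (Subgroup.zpowers D.zz).Normal where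
  conj_mem x hx g := by
    rw [Subgroup.mem_center_iff.mp (D.zz_central hx) g, mul_inv_cancel_right]
    exact hx

theorem coe_prod (w : List Fi22.Gen) : ((w.map D.gen).prod : D.Gam) = (⟨(w.map D.f).prod,
    list_prod_mem (by rintro x hx; obtain ⟨a, -, rfl⟩ := List.mem_map.mp hx
                      exact Subgroup.subset_closure ⟨a, rfl⟩)⟩ : D.Gam) := by
  apply Subtype.ext
  rw [SubmonoidClass.coe_list_prod, List.map_map]
  rfl

theorem mk_mem {g : D.Gam} (h : (g : G) ∈ Subgroup.zpowers D.z) : g ∈ Subgroup.zpowers D.zz := by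
  obtain ⟨k, hk⟩ := h
  exact ⟨k, Subtype.ext (by simpa [zz] using hk)⟩

theorem rels_one : ∀ r ∈ coxRelators Fi22.edges ∪ {r | r ∈ Fi22.extra},
    FreeGroup.lift (fun x => (QuotientGroup.mk' (Subgroup.zpowers D.zz)) (D.gen x)) r = 1 := by
  intro r hr
  have e : FreeGroup.lift (fun x => (QuotientGroup.mk' (Subgroup.zpowers D.zz)) (D.gen x)) =
      (QuotientGroup.mk' (Subgroup.zpowers D.zz)).comp (FreeGroup.lift D.gen) := by
    apply FreeGroup.ext_hom; intro x; simp
  rw [e, MonoidHom.comp_apply, QuotientGroup.mk'_apply, QuotientGroup.eq_one_iff]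
  rcases hr with ⟨x, -, y, -, rfl⟩ | hr
  · have : ((FreeGroup.lift D.gen) ((FreeGroup.of x * FreeGroup.of y) ^ coxLabel Fi22.edges x y)) = 1 := by
      apply Subtype.ext
      simp only [map_pow, map_mul, FreeGroup.lift_apply_of, SubgroupClass.coe_pow, Subgroup.coe_mul,
        Subgroup.coe_one]
      exact D.cox x y
    rw [this]; exact one_mem _
  · have hm : FreeGroup.lift D.gen r ∈ Fi22.extra.map (FreeGroup.lift D.gen) := List.mem_map_of_mem hr
    rw [extra_eq, List.mem_cons, List.mem_cons, List.mem_singleton] at hm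
    refine D.mk_mem ?_
    rcases hm with h | h | h <;> rw [h, coe_prod, SubgroupClass.coe_pow]
    · exact D.spider
    · change (wordE7.map D.f).prod ^ 9 ∈ _
      rw [D.e7]; exact one_mem _
    · exact D.e7'

/-- The map from Fi22 onto the quotient by the central element. -/
noncomputable def down : Fi22 →* D.Gam ⧸ Subgroup.zpowers D.zz :=
  PresentedGroup.toGroup D.rels_one

theorem down_of (x : Fi22.Gen) : D.down (PresentedGroup.of x) = (D.gen x : D.Gam ⧸ Subgroup.zpowers D.zz) :=
  PresentedGroup.toGroup.of _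

theorem closure_gen : Subgroup.closure (Set.range D.gen) = ⊤ := by
  have := Subgroup.closure_closure_coe_preimage (k := Set.range D.f)
  rw [← this]
  congr 1
  ext ⟨g, hg⟩
  simp [gen, Subtype.ext_iff]

theorem down_bijective : Function.Bijective D.down := by
  constructor
  · haveI : IsSimpleGroup Fi22 := H16.Fi22Order.isSimple
    rcases (MonoidHom.normal_ker D.down).eq_bot_or_eq_top with h | h
    · exact (MonoidHom.ker_eq_bot_iff _).mp h
    · exfalso
      have ha : D.gen .a ∈ Subgroup.zpowers D.zz := by
        rw [← QuotientGroup.eq_one_iff, ← D.down_of]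
        exact MonoidHom.mem_ker.mp (h ▸ Subgroup.mem_top _)
      have := congrArg Subtype.val (Subgroup.mem_center_iff.mp (D.zz_central ha) (D.gen .b))
      exact D.ab_ne this.symm
  · rw [← MonoidHom.range_eq_top, eq_top_iff,
      ← Subgroup.map_top_of_surjective _ (QuotientGroup.mk'_surjective (Subgroup.zpowers D.zz)),
      ← D.closure_gen, MonoidHom.map_closure, Subgroup.closure_le]
    rintro _ ⟨_, ⟨x, rfl⟩, rfl⟩
    exact ⟨_, D.down_of x⟩

/-- The covering map. -/
noncomputable def sigma : D.Gam →* Fi22 :=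
  (MulEquiv.ofBijective D.down D.down_bijective).symm.toMonoidHom.comp (QuotientGroup.mk' _)

theorem sigma_surjective : Function.Surjective D.sigma :=
  (MulEquiv.ofBijective D.down D.down_bijective).symm.surjective.comp (QuotientGroup.mk'_surjective _)

theorem sigma_ker : D.sigma.ker = Subgroup.zpowers D.zz := by
  ext x
  simp only [sigma, MonoidHom.mem_ker, MonoidHom.comp_apply, MulEquiv.coe_toMonoidHom]
  rw [EmbeddingLike.map_eq_one_iff, QuotientGroup.mk'_apply, QuotientGroup.eq_one_iff]

theorem card_ker : Nat.card D.sigma.ker = D.p := by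
  haveI := Fact.mk D.hp
  rw [D.sigma_ker, Nat.card_zpowers]
  exact orderOf_eq_prime (Subtype.ext (by simpa [zz] using D.z_pow))
    (fun h => D.z_ne (congrArg Subtype.val h))

theorem finite_Gam : Finite D.Gam := by
  have h : Nat.card D.sigma.ker * D.sigma.ker.index ≠ 0 := by
    refine mul_ne_zero (by rw [D.card_ker]; exact D.hp.ne_zero) ?_
    rw [Subgroup.index_ker, MonoidHom.range_eq_top.mpr D.sigma_surjective, Subgroup.card_top]
    exact Nat.card_pos.ne'
  rw [Subgroup.card_mul_index] at h
  exact Nat.finite_of_card_ne_zero h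

theorem card_Gam : Nat.card D.Gam = D.p * Nat.card Fi22 := by
  rw [← Subgroup.card_mul_index D.sigma.ker, D.card_ker, Subgroup.index_ker,
    MonoidHom.range_eq_top.mpr D.sigma_surjective, Subgroup.card_top]

theorem commutator_eq_top : commutator D.Gam = ⊤ := by
  set q := Abelianization.of (G := D.Gam) with hq
  have hsq : ∀ x, q (D.gen x) * q (D.gen x) = 1 := fun x => by
    rw [← map_mul, show D.gen x * D.gen x = 1 from Subtype.ext (by
      have := D.cox x x; simpa [coxLabel, gen] using this), map_one]
  have hedge : ∀ x y, coxLabel Fi22.edges x y = 3 → q (D.gen x) = q (D.gen y) := by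
    intro x y h
    have h3 : (q (D.gen x) * q (D.gen y)) ^ 3 = 1 := by
      rw [← map_mul, ← map_pow, show (D.gen x * D.gen y) ^ 3 = 1 from Subtype.ext (by
        have := D.cox x y; rw [h] at this; simpa [gen] using this), map_one]
    rw [show (q (D.gen x) * q (D.gen y)) ^ 3 =
        (q (D.gen x) * q (D.gen x)) * (q (D.gen y) * q (D.gen y)) * (q (D.gen x) * q (D.gen y)) by
      simp only [pow_succ, pow_zero, one_mul, mul_comm, mul_left_comm],
      hsq, hsq, one_mul, one_mul] at h3
    exact (eq_inv_of_mul_eq_one_left h3).trans (inv_eq_of_mul_eq_one_right (hsq y))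
  have hab := hedge .a .b rfl
  have hbc := hedge .b .c rfl
  have hcd := hedge .c .d rfl
  have hde := hedge .d .e rfl
  have hdh := hedge .d .h rfl
  have hef := hedge .e .f rfl
  have hfg := hedge .f .g rfl
  have hhi := hedge .h .i rfl
  have hall : ∀ x, q (D.gen x) = q (D.gen .a) := by
    intro x
    cases x
    · rfl
    · exact hab.symm
    · exact (hab.trans hbc).symm
    · exact (hab.trans (hbc.trans hcd)).symm
    · exact (hab.trans (hbc.trans (hcd.trans hde))).symm
    · exact (hab.trans (hbc.trans (hcd.trans (hde.trans hef)))).symm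
    · exact (hab.trans (hbc.trans (hcd.trans (hde.trans (hef.trans hfg))))).symm
    · exact (hab.trans (hbc.trans (hcd.trans hdh))).symm
    · exact (hab.trans (hbc.trans (hcd.trans (hdh.trans hhi)))).symm
  have hone : q (D.gen .a) = 1 := by
    have h7 : (wordE7.map (fun x => q (D.gen x))).prod ^ 9 = 1 := by
      rw [show (wordE7.map (fun x => q (D.gen x))) = (wordE7.map D.gen).map q by rw [List.map_map]; rfl,
        ← map_list_prod, ← map_pow, coe_prod, show (⟨(wordE7.map D.f).prod, _⟩ : D.Gam) ^ 9 = 1 from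
          Subtype.ext D.e7, map_one]
    rw [show (fun x => q (D.gen x)) = fun _ => q (D.gen .a) from funext hall, List.map_const',
      List.prod_replicate, ← pow_mul] at h7
    have h2 : q (D.gen .a) ^ 2 = 1 := by rw [pow_two]; exact hsq .a
    have := pow_gcd_eq_one.mpr ⟨h7, h2⟩
    simpa [wordE7] using this
  rw [eq_top_iff, ← D.closure_gen, Subgroup.closure_le]
  rintro _ ⟨x, rfl⟩
  rw [SetLike.mem_coe, ← Abelianization.ker_of, MonoidHom.mem_ker]
  exact (hall x).trans hone

end CoverGens

end Cfsg.Agent.H55.Fi22M
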