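import Cfsg.Agent.H16.Fi23Double
import Cfsg.Agent.H55.Fi22M.Common

/-! The double cover of Fi22 inside Fi23. -/

set_option autoImplicit false
set_option maxRecDepth 8000

namespace Cfsg.Agent.H55.Fi22M

open Cfsg.Spor H16 H16.EnumData H16.CoxEnum H16.Fi23Double

/-- the number of a generator in the numbering of the certificates -/
def idx : Fi22.Gen → ℕ := fun x => Fi22H.gens.idxOf x

theorem idx_lt (x : Fi22.Gen) : idx x < 9 := by cases x <;> decide

/-- all generators -/
def gensList : List Fi22.Gen := [.a, .b, .c, .d, .e, .f, .g, .h, .i]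

theorem mem_gensList (x : Fi22.Gen) : x ∈ gensList := by cases x <;> decide

/-- path word of a power of a product of generators -/
def pathWord (n : ℕ) (w : List Fi22.Gen) : List ℕ := (List.replicate n (w.map idx).reverse).flatten

theorem pathWord_lt (n : ℕ) (w : List Fi22.Gen) : ∀ g ∈ pathWord n w, g < 9 := by
  intro g hg
  obtain ⟨l, hl, hgl⟩ := List.mem_flatten.mp hg
  rw [List.eq_of_mem_replicate hl, List.mem_reverse, List.mem_map] at hgl
  obtain ⟨x, -, rfl⟩ := hgl
  exact idx_lt x

theorem ev_path {G : Type} [Group G] (s : ℕ → G) : ∀ w : List Fi22.Gen,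
    ev s (w.map idx).reverse = (w.map fun x => s (idx x)).prod
  | [] => by simp [ev]
  | x :: w => by
    rw [List.map_cons, List.reverse_cons, ev_append, ev_path s w, List.map_cons, List.prod_cons]
    simp [ev]

theorem prod_pow_eq (n : ℕ) (w : List Fi22.Gen) :
    (w.map fun x => gh (idx x)).prod ^ n = ev gh (pathWord n w) := by
  rw [pathWord, ev_replicate, ev_path]

/-- a word of generators is trivial in Fi23 -/
noncomputable def isOne (w : List ℕ) : Bool :=
  (allFixed Fi23H.base []).all (fun i => Nat.beq (Fi23H.data.run (List.replicate 1 w).flatten i) i)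

theorem ev_gh_one {w : List ℕ} (hw : ∀ g ∈ w, g < 9) (h : isOne w = true) : ev gh w = 1 := by
  have h2 := el_pow w (fun g hg => (hw g hg).trans (by norm_num)) 1 h
  rw [pow_one, ← coe_ev w hw] at h2
  exact Subtype.ext h2

theorem dchk_cox : (gensList.all fun x => gensList.all fun y =>
    isOne (pathWord (coxLabel Fi22.edges x y) [x, y])) = true := by decide +kernel

theorem dchk_e7 : isOne (pathWord 9 wordE7) = true := by decide +kernel
theorem dchk_spider : isOne (pathWord 10 wordSpider) = true := by decide +kernel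
theorem dchk_e7' : pathWord 9 wordE7' = zW := by decide +kernel
theorem dchk_ab : isOne [0, 1, 0, 1] = false := by decide +kernel

theorem gens_closure : Subgroup.closure (Set.range fun x => gh (idx x)) = ⊤ := by
  rw [← closure_gh]
  congr 1
  ext v
  constructor
  · rintro ⟨x, rfl⟩; exact ⟨⟨idx x, idx_lt x⟩, rfl⟩
  · rintro ⟨j, rfl⟩
    exact ⟨Fi22H.gens[(j : ℕ)]'(gens_len.symm ▸ j.2),
      congrArg gh (List.Nodup.idxOf_getElem Fi22H.gens_nodup _ _)⟩

theorem gh_ab_ne : gh 0 * gh 1 ≠ gh 1 * gh 0 := by
  intro h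
  have h2 := congrArg Subtype.val (show ev gh [0, 1, 0, 1] = 1 by
    simp only [ev, one_mul]
    rw [← h, mul_assoc (gh 0) (gh 1) (gh 1), gh_sq, mul_one, gh_sq])
  rw [coe_ev _ (by decide)] at h2
  have hfix := dchk_ab
  rw [isOne] at hfix
  have hall : (allFixed Fi23H.base []).all (fun i =>
      Nat.beq (Fi23H.data.run (List.replicate 1 [0, 1, 0, 1]).flatten i) i) = true := by
    refine List.all_eq_true.mpr fun i hi => ?_
    have hin : i < Fi23H.data.n := by
      have : ∀ j ∈ allFixed Fi23H.base [], j < Fi23H.data.n := by decide +kernel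
      exact this i hi
    have h3 := congrArg (fun p : Equiv.Perm (Fin Fi23H.data.n) => ((p ⟨i, hin⟩ : Fin _) : ℕ))
      ((congrArg Fi23H.theModel.rho h2).trans (map_one _))
    simp only [el, Fi23H.theModel.rho_ev, Fi23H.valid.perm_word [0, 1, 0, 1] (by decide),
      Equiv.Perm.one_apply] at h3
    exact Nat.beq_eq.mpr (by simpa using h3) ▸ rfl
  rw [hall] at hfix
  exact Bool.noConfusion hfix

/-- The double cover data. -/
noncomputable def double : CoverGens Fi23H.sub where
  f x := gh (idx x)
  z := zz
  p := 2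
  hp := Nat.prime_two
  z_pow := by rw [sq]; exact zz_sq
  z_ne h := by
    have h2 := card_zK.1
    rw [Nat.card_zpowers, h, orderOf_one] at h2
    omega
  z_comm x := (Subgroup.mem_center_iff.mp zz_central _).symm
  z_mem := by rw [gens_closure]; exact Subgroup.mem_top _
  cox x y := by
    have h := ev_gh_one (pathWord_lt _ [x, y]) (List.all_eq_true.mp (List.all_eq_true.mp dchk_cox x
      (mem_gensList x)) y (mem_gensList y))
    rw [← prod_pow_eq] at h
    simpa using h
  e7 := (prod_pow_eq _ _).trans (ev_gh_one (pathWord_lt _ _) dchk_e7)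
  e7' := by rw [prod_pow_eq, dchk_e7']; exact Subgroup.mem_zpowers zz
  spider := by
    rw [prod_pow_eq, ev_gh_one (pathWord_lt _ _) dchk_spider]; exact one_mem _
  ab_ne := gh_ab_ne

end Cfsg.Agent.H55.Fi22M
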