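import Cfsg.Agent.H55.Tits.Bits
import Cfsg.Agent.H55.Fi22M.TripleData
import Cfsg.Agent.H55.Fi22M.Common

/-! The triple cover of Fi22 as a group of matrices. -/

set_option autoImplicit false
set_option maxRecDepth 10000

namespace Cfsg.Agent.H55.Fi22M

open Cfsg.Spor Tits

/-- the number of a generator -/
def num : Fi22.Gen → ℕ
  | .a => 0 | .b => 1 | .c => 2 | .d => 3 | .e => 4 | .f => 5 | .g => 6 | .h => 7 | .i => 8

/-- rows of generator `k` -/
def matRows (k : ℕ) : List ℕ := mats.getD k []

/-- rows of a product of generators, left factor first -/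
noncomputable def prodR : List ℕ → List ℕ → List ℕ
  | [], acc => acc
  | k :: w, acc => prodR w (mulRows acc (matRows k))

/-- matrix with given rows -/
def ofRows (R : List ℕ) : Matrix (Fin 54) (Fin 54) (ZMod 2) :=
  Matrix.of fun r c => bit (R.getD r.val 0) c.val

theorem rowsOf_ofRows {R : List ℕ} (h : R.length = 54) : RowsOf (Equiv.refl _) (ofRows R) R :=
  ⟨h, fun _ _ => rfl⟩

theorem lengths : mats.length = 9 ∧ (List.range 9).all (fun k => (matRows k).length == 54) = true ∧
    scalarRows.length = 54 := by decide +kernel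

theorem matRows_length {k : ℕ} (hk : k < 9) : (matRows k).length = 54 :=
  beq_iff_eq.mp (List.all_eq_true.mp lengths.2.1 k (List.mem_range.mpr hk))

theorem num_lt (x : Fi22.Gen) : num x < 9 := by cases x <;> decide

/-- the matrix of a generator -/
def mat (x : Fi22.Gen) : Matrix (Fin 54) (Fin 54) (ZMod 2) := ofRows (matRows (num x))

/-- product of the matrices -/
def matProd (w : List Fi22.Gen) : Matrix (Fin 54) (Fin 54) (ZMod 2) := (w.map mat).prod

theorem rowsOf_prodR : ∀ (w : List Fi22.Gen) {M : Matrix (Fin 54) (Fin 54) (ZMod 2)} {R : List ℕ},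
    RowsOf (Equiv.refl _) M R → RowsOf (Equiv.refl _) (M * matProd w) (prodR (w.map num) R)
  | [], M, R, h => by simpa [matProd, prodR] using h
  | x :: w, M, R, h => by
    have := rowsOf_prodR w (h.mul (rowsOf_ofRows (matRows_length (num_lt x))))
    simpa [matProd, prodR, List.map_cons, List.prod_cons, mul_assoc, mat] using this

theorem rowsOf_matProd (w : List Fi22.Gen) :
    RowsOf (Equiv.refl _) (matProd w) (prodR (w.map num) (oneRows 54)) := by
  simpa using rowsOf_prodR w rowsOf_one

theorem eq_of_rows {w : List Fi22.Gen} {R : List ℕ} {M : Matrix (Fin 54) (Fin 54) (ZMod 2)}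
    (hM : RowsOf (Equiv.refl _) M R) (h : prodR (w.map num) (oneRows 54) = R) : matProd w = M :=
  (h ▸ rowsOf_matProd w).ext hM

/-- all generators -/
def allGens : List Fi22.Gen := [.a, .b, .c, .d, .e, .f, .g, .h, .i]

/-- word of a power of a product of two generators -/
def coxWord (x y : Fi22.Gen) : List Fi22.Gen :=
  (List.replicate (coxLabel Fi22.edges x y) [x, y]).flatten

theorem chk_cox : (allGens.all fun x => allGens.all fun y =>
    prodR ((coxWord x y).map num) (oneRows 54) == oneRows 54) = true := by decide +kernel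

/-- a word repeated -/
def powWord (n : ℕ) (w : List Fi22.Gen) : List Fi22.Gen := (List.replicate n w).flatten

theorem chk_e7 : prodR ((powWord 9 wordE7).map num) (oneRows 54) = oneRows 54 := by decide +kernel
theorem chk_e7' : prodR ((powWord 9 wordE7').map num) (oneRows 54) = oneRows 54 := by decide +kernel
theorem chk_spider : prodR ((powWord 10 wordSpider).map num) (oneRows 54) = scalarRows := by
  decide +kernel
theorem chk_cube : mulRows (mulRows scalarRows scalarRows) scalarRows = oneRows 54 := by decide +kernel
theorem chk_ne : scalarRows ≠ oneRows 54 := by decide +kernel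
theorem chk_central : (allGens.all fun x =>
    mulRows scalarRows (matRows (num x)) == mulRows (matRows (num x)) scalarRows) = true := by
  decide +kernel
theorem chk_ab : prodR ([Fi22.Gen.a, .b].map num) (oneRows 54) ≠
    prodR ([Fi22.Gen.b, .a].map num) (oneRows 54) := by decide +kernel

theorem matProd_powWord (n : ℕ) (w : List Fi22.Gen) : matProd (powWord n w) = matProd w ^ n := by
  induction n with
  | zero => rfl
  | succ n ih =>
    rw [powWord, List.replicate_succ, List.flatten_cons, matProd, List.map_append, List.prod_append,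
      pow_succ']
    exact congrArg _ ih

theorem mem_allGens (x : Fi22.Gen) : x ∈ allGens := by cases x <;> decide

theorem mat_cox (x y : Fi22.Gen) : (mat x * mat y) ^ coxLabel Fi22.edges x y = 1 := by
  have h := beq_iff_eq.mp (List.all_eq_true.mp (List.all_eq_true.mp chk_cox x (mem_allGens x)) y
    (mem_allGens y))
  have := eq_of_rows rowsOf_one h
  rw [show coxWord x y = powWord (coxLabel Fi22.edges x y) [x, y] from rfl, matProd_powWord] at this
  simpa [matProd] using this

theorem mat_sq (x : Fi22.Gen) : mat x * mat x = 1 := by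
  simpa [coxLabel] using mat_cox x x

/-- The generator as a unit. -/
def unitGen (x : Fi22.Gen) : (Matrix (Fin 54) (Fin 54) (ZMod 2))ˣ := ⟨mat x, mat x, mat_sq x, mat_sq x⟩

/-- The scalar matrix. -/
def scalar : Matrix (Fin 54) (Fin 54) (ZMod 2) := ofRows scalarRows

theorem rowsOf_scalar : RowsOf (Equiv.refl _) scalar scalarRows := rowsOf_ofRows lengths.2.2

theorem scalar_cube : scalar * scalar * scalar = 1 :=
  ((rowsOf_scalar.mul rowsOf_scalar).mul rowsOf_scalar).ext (chk_cube ▸ rowsOf_one)

/-- The scalar as a unit. -/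
def unitScalar : (Matrix (Fin 54) (Fin 54) (ZMod 2))ˣ :=
  ⟨scalar, scalar * scalar, by rw [← mul_assoc]; exact scalar_cube, scalar_cube⟩

theorem coe_unit_prod (w : List Fi22.Gen) :
    (((w.map unitGen).prod : (Matrix (Fin 54) (Fin 54) (ZMod 2))ˣ) : Matrix (Fin 54) (Fin 54) (ZMod 2))
      = matProd w := by
  induction w with
  | nil => rfl
  | cons x w ih =>
    rw [List.map_cons, List.prod_cons, Units.val_mul, ih, matProd, matProd, List.map_cons, List.prod_cons]
    rfl

theorem spider_unit : (wordSpider.map unitGen).prod ^ 10 = unitScalar := by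
  apply Units.ext
  rw [Units.val_pow_eq_pow_val, coe_unit_prod, ← matProd_powWord]
  exact eq_of_rows rowsOf_scalar chk_spider

/-- The rows of a matrix are unique among short rows. -/
theorem rows_unique {M : Matrix (Fin 54) (Fin 54) (ZMod 2)} {R S : List ℕ}
    (hR : RowsOf (Equiv.refl _) M R) (hS : RowsOf (Equiv.refl _) M S)
    (hr : R.all (fun x => decide (x < 2 ^ 54)) = true) (hs : S.all (fun x => decide (x < 2 ^ 54)) = true) :
    R = S := by
  refine List.ext_getElem (hR.1.trans hS.1.symm) fun i hi hi' => Nat.eq_of_testBit_eq fun j => ?_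
  have hi54 : i < 54 := hR.1 ▸ hi
  rcases lt_or_ge j 54 with hj | hj
  · have h := (hR.2 ⟨i, hi54⟩ ⟨j, hj⟩).symm.trans (hS.2 ⟨i, hi54⟩ ⟨j, hj⟩)
    simp only [Equiv.refl_apply, List.getD_eq_getElem _ _ hi, List.getD_eq_getElem _ _ hi', bit] at h
    revert h
    generalize (R[i]).testBit j = x
    generalize (S[i]).testBit j = y
    cases x <;> cases y <;> simp
  · have ha : R[i] < 2 ^ 54 := of_decide_eq_true (List.all_eq_true.mp hr _ (List.getElem_mem hi))
    have hb : S[i] < 2 ^ 54 := of_decide_eq_true (List.all_eq_true.mp hs _ (List.getElem_mem hi'))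
    rw [Nat.testBit_lt_two_pow (ha.trans_le (Nat.pow_le_pow_right (by omega) hj)),
      Nat.testBit_lt_two_pow (hb.trans_le (Nat.pow_le_pow_right (by omega) hj))]

theorem chk_short : scalarRows.all (fun x => decide (x < 2 ^ 54)) = true ∧
    (oneRows 54).all (fun x => decide (x < 2 ^ 54)) = true ∧
    (prodR ([Fi22.Gen.a, .b].map num) (oneRows 54)).all (fun x => decide (x < 2 ^ 54)) = true ∧
    (prodR ([Fi22.Gen.b, .a].map num) (oneRows 54)).all (fun x => decide (x < 2 ^ 54)) = true := by
  decide +kernel

theorem mat_central (x : Fi22.Gen)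
    (h : mulRows scalarRows (matRows (num x)) = mulRows (matRows (num x)) scalarRows) :
    scalar * mat x = mat x * scalar := by
  have h1 := rowsOf_scalar.mul (rowsOf_ofRows (matRows_length (num_lt x)))
  have h2 := (rowsOf_ofRows (matRows_length (num_lt x))).mul rowsOf_scalar
  rw [h] at h1
  exact h1.ext h2

theorem e7_mat : matProd (powWord 9 wordE7) = 1 :=
  eq_of_rows (w := powWord 9 wordE7) (R := oneRows 54) rowsOf_one chk_e7

theorem e7'_mat : matProd (powWord 9 wordE7') = 1 :=
  eq_of_rows (w := powWord 9 wordE7') (R := oneRows 54) rowsOf_one chk_e7'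

theorem unit_mem (x : Fi22.Gen) : unitGen x ∈ Subgroup.closure (Set.range unitGen) :=
  Subgroup.subset_closure (Set.mem_range_self x)

theorem scalar_mem : unitScalar ∈ Subgroup.closure (Set.range unitGen) :=
  spider_unit.subst (motive := fun t => t ∈ Subgroup.closure (Set.range unitGen))
    (Subgroup.pow_mem _ (Subgroup.list_prod_mem _ (fun y hy =>
      (List.mem_map.mp hy).elim fun a ha => ha.2 ▸ unit_mem a)) 10)

theorem spider_mem : (wordSpider.map unitGen).prod ^ 10 ∈ Subgroup.zpowers unitScalar :=
  spider_unit.symm.subst (motive := fun t => t ∈ Subgroup.zpowers unitScalar)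
    (Subgroup.mem_zpowers unitScalar)

/-- The triple cover data. -/
noncomputable def triple : CoverGens (Matrix (Fin 54) (Fin 54) (ZMod 2))ˣ where
  f := unitGen
  z := unitScalar
  p := 3
  hp := Nat.prime_three
  z_pow := Units.ext (by
    simp only [Units.val_pow_eq_pow_val, Units.val_one, pow_succ, pow_zero, one_mul]
    exact scalar_cube)
  z_ne h := by
    have h1 : scalar = 1 := congrArg Units.val h
    have h2 := rowsOf_scalar
    rw [h1] at h2
    exact chk_ne (rows_unique h2 rowsOf_one chk_short.1 chk_short.2.1)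
  z_comm x := by
    apply Units.ext
    have h := beq_iff_eq.mp (List.all_eq_true.mp chk_central x (mem_allGens x))
    exact mat_central x h
  z_mem := by
    exact scalar_mem
  cox x y := Units.ext (by
    rw [Units.val_pow_eq_pow_val, Units.val_mul, Units.val_one]; exact mat_cox x y)
  e7 := Units.ext (by
    rw [Units.val_pow_eq_pow_val, coe_unit_prod, ← matProd_powWord, Units.val_one]
    exact e7_mat)
  e7' := by
    have h : (wordE7'.map unitGen).prod ^ 9 = 1 := Units.ext (by
      rw [Units.val_pow_eq_pow_val, coe_unit_prod, ← matProd_powWord, Units.val_one]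
      exact e7'_mat)
    rw [h]; exact one_mem _
  spider := spider_mem
  ab_ne h := by
    have h1 : matProd [Fi22.Gen.a, .b] = matProd [Fi22.Gen.b, .a] := by
      rw [← coe_unit_prod, ← coe_unit_prod]
      simpa using congrArg Units.val h
    have h2 := rowsOf_matProd [Fi22.Gen.a, .b]
    rw [h1] at h2
    exact chk_ab (rows_unique h2 (rowsOf_matProd [Fi22.Gen.b, .a])
      chk_short.2.2.1 chk_short.2.2.2)

end Cfsg.Agent.H55.Fi22M
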