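import Cfsg.Agent.H16.Fi23Lift
import Cfsg.Agent.H55.Fi22M.Common

/-!
Normalised lifts of the generators of Fi22 to a central extension.
-/

set_option autoImplicit false
set_option maxRecDepth 8000
set_option linter.unusedSectionVars false

namespace Cfsg.Agent.H55.Fi22M

open Cfsg.Spor H16 H16.EnumData H16.CoxEnum

/-- the edges, in the numbering of the certificate -/
def edgeList : List (Nat × Nat) := [(0,1),(1,2),(2,3),(3,4),(4,5),(5,6),(3,7),(7,8)]

/-- adjacency of letters -/
def adj (x y : Nat) : Bool := edgeList.contains (x, y) || edgeList.contains (y, x)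

/-- the parent of a letter in the diagram -/
def parent (n : Nat) : Nat := if n = 7 then 3 else n - 1

/-- element of a word -/
noncomputable def el22 (w : List Nat) : Fi22 := ev Fi22H.val w

/-- Is the value of a word in Fi22 trivial? -/
noncomputable def rel22 (w : List Nat) : Bool :=
  w.all (fun g => Nat.ble (Nat.succ g) 9) &&
    (allFixed Fi22H.base []).all fun i => Nat.beq (Fi22H.data.run w i) i

theorem el22_eq_one {w : List Nat} (h : rel22 w = true) : el22 w = 1 := by
  rw [rel22, Bool.and_eq_true] at h
  have hlt : ∀ g ∈ w, g < Fi22H.data.ng := fun g hg =>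
    Nat.le_of_ble_eq_true (List.all_eq_true.mp h.1 g hg)
  have := Fi22H.theModel.pow_eq_one_of_base Fi22Order.card_and_faithful.2 Fi22H.base_ok
    Fi22H.base_prod Fi22Order.card_and_faithful.1 w hlt 1 (by simpa using h.2)
  simpa [el22] using this

/-- the word of the first relator of type E7 -/
def u0 : List Nat := [7,5,4,3,2,1,0]

/-- the word of the second relator of type E7 -/
def v0 : List Nat := [7,6,5,4,3,2,1]

/-- a word of type E7 in the letters commuting with the first one -/
def k0 : List Nat := [2,8,7,3,4,5,6]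

/-- the spider word -/
def r0 : List Nat := [8,7,3,5,4,3,1,2,3]

/-- ninth power -/
def pow9 (w : List Nat) : List Nat := (List.replicate 9 w).flatten

/-- the spider relator -/
def r10 : List Nat := (List.replicate 10 r0).flatten

theorem rel_u : rel22 (pow9 u0) = true := by decide +kernel
theorem rel_v : rel22 (pow9 v0) = true := by decide +kernel
theorem rel_k : rel22 (pow9 k0) = true := by decide +kernel
theorem rel_r : rel22 r10 = true := by decide +kernel

theorem rel22_sq : ∀ x : Fin 9, rel22 [(x : Nat), (x : Nat)] = true := by decide +kernel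

theorem rel22_edge : ∀ x y : Fin 9, adj x y = true →
    rel22 [(y : Nat), x, y, x, y, x] = true := by decide +kernel

theorem rel22_nonedge : ∀ x y : Fin 9, adj x y = false → rel22 [(y : Nat), x, y, x] = true := by
  decide +kernel

theorem val22_ge {g : Nat} (h : 9 ≤ g) : Fi22H.val g = 1 := by
  have : Fi22H.gens[g]? = none := List.getElem?_eq_none (by simpa [Fi22H.gens] using h)
  simp [Fi22H.val, numGen, this]

theorem val22_sq {x : Nat} (hx : x < 9) : Fi22H.val x * Fi22H.val x = 1 := by
  simpa [el22, ev] using el22_eq_one (rel22_sq ⟨x, hx⟩)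

theorem val22_conj {x y : Nat} (hx : x < 9) (hy : y < 9) (h : adj x y = true) :
    Fi22H.val x * Fi22H.val y * Fi22H.val x * (Fi22H.val x * Fi22H.val y)⁻¹ = Fi22H.val y :=
  Fi23Mult.conj_of_rel (val22_sq hx) (val22_sq hy)
    (by simpa [el22, ev, mul_assoc] using el22_eq_one (rel22_edge ⟨x, hx⟩ ⟨y, hy⟩ h))

theorem val22_comm {x y : Nat} (hx : x < 9) (hy : y < 9) (h : adj x y = false) :
    Fi22H.val x * Fi22H.val y = Fi22H.val y * Fi22H.val x := by
  have h1 : Fi22H.val x * Fi22H.val y * Fi22H.val x * Fi22H.val y = 1 := by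
    simpa [el22, ev, mul_assoc] using el22_eq_one (rel22_nonedge ⟨x, hx⟩ ⟨y, hy⟩ h)
  have hx' := inv_eq_of_mul_eq_one_right (val22_sq hx)
  have hy' := inv_eq_of_mul_eq_one_right (val22_sq hy)
  rw [mul_assoc (Fi22H.val x * Fi22H.val y)] at h1
  rw [eq_inv_of_mul_eq_one_left h1, mul_inv_rev, hx', hy']

section moves

variable {G : Type*} [Group G]

/-- Rotate (0) or swap the letters in positions `k`, `k + 1` (for `k + 1`), when these commute. -/
def applyMove : Nat → List Nat → Option (List Nat)
  | 0, g :: w => some (w ++ [g])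
  | 1, a :: b :: w => if adj a b then none else some (b :: a :: w)
  | k + 2, a :: w => (applyMove (k + 1) w).map (a :: ·)
  | _, _ => none

/-- Apply a list of moves. -/
def applyMoves : List Nat → List Nat → Option (List Nat)
  | [], w => some w
  | m :: ms, w => (applyMove m w).bind (applyMoves ms)

theorem swap_sound (s : Nat → G)
    (hc : ∀ x y, x < 9 → y < 9 → adj x y = false → s x * s y = s y * s x) :
    ∀ (k : Nat) (w w' : List Nat), applyMove (k + 1) w = some w' → (∀ g ∈ w, g < 9) →
      ev s w' = ev s w ∧ ∀ g ∈ w', g < 9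
  | 0, a :: b :: w, w', h, hlt => by
    simp only [applyMove] at h
    split at h
    · exact absurd h (by simp)
    · rename_i hab
      obtain rfl := Option.some.inj h
      refine ⟨?_, fun g hg => hlt g ?_⟩
      · simp only [ev, mul_assoc]
        rw [hc a b (hlt a (by simp)) (hlt b (by simp)) (Bool.not_eq_true _ ▸ hab)]
      · simp only [List.mem_cons] at hg ⊢
        tauto
  | k + 1, a :: w, w', h, hlt => by
    simp only [applyMove] at h
    cases hm : applyMove (k + 1) w with
    | none => rw [hm] at h; exact absurd h (by simp)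
    | some v =>
      rw [hm] at h
      obtain rfl := Option.some.inj h
      obtain ⟨he, hv⟩ := swap_sound s hc k w v hm fun g hg => hlt g (List.mem_cons_of_mem _ hg)
      refine ⟨by simp only [ev]; rw [he], fun g hg => ?_⟩
      rcases List.mem_cons.mp hg with rfl | hg
      · exact hlt g (by simp)
      · exact hv g hg
  | 0, [], w', h, _ => by simp [applyMove] at h
  | 0, [_], w', h, _ => by simp [applyMove] at h
  | _ + 1, [], w', h, _ => by simp [applyMove] at h

theorem moves_sound (s : Nat → G)
    (hc : ∀ x y, x < 9 → y < 9 → adj x y = false → s x * s y = s y * s x) :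
    ∀ (ms : List Nat) (w w' : List Nat), applyMoves ms w = some w' → (∀ g ∈ w, g < 9) → ∀ z : G,
      ev s w ^ 9 = z → (∀ a : G, a * z = z * a) → ev s w' ^ 9 = z
  | [], w, w', h, _, z, hz, _ => by obtain rfl := Option.some.inj h; exact hz
  | m :: ms, w, w', h, hlt, z, hz, hzc => by
    simp only [applyMoves] at h
    cases hm : applyMove m w with
    | none => rw [hm] at h; exact absurd h (by simp)
    | some v =>
      rw [hm] at h
      have key : ev s v ^ 9 = z ∧ ∀ g ∈ v, g < 9 := by
        cases m with
        | zero =>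
          cases w with
          | nil => simp [applyMove] at hm
          | cons g w =>
            simp only [applyMove] at hm
            obtain rfl := Option.some.inj hm
            refine ⟨?_, fun x hx => hlt x ?_⟩
            · rw [Fi23Mult.ev_rot_one]; exact Fi23Mult.pow_rot hz hzc
            · simp only [List.mem_append, List.mem_singleton, List.mem_cons] at hx ⊢
              tauto
        | succ k =>
          obtain ⟨he, hv⟩ := swap_sound s hc k w v hm hlt
          exact ⟨he ▸ hz, hv⟩
      exact moves_sound s hc ms v w' h key.2 z key.1 hzc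

/-- moves taking the first E7 word to its reverse -/
def uMoves : List Nat := [0, 0, 0, 0, 0, 0, 1, 0, 1, 0, 1, 0, 1, 0, 1, 0, 2, 1, 0, 2, 1, 0, 2, 1, 0, 2, 1, 0, 3, 2, 1, 0, 3, 2, 1, 0, 3, 2, 1, 0, 5, 4, 3, 2, 1, 0, 5, 6]

/-- moves taking the second E7 word to its reverse -/
def vMoves : List Nat := [0, 0, 0, 0, 0, 0, 1, 0, 1, 0, 1, 0, 1, 0, 1, 0, 2, 1, 0, 2, 1, 0, 2, 1, 0, 2, 1, 0, 4, 3, 2, 1, 0, 4, 3, 2, 1, 0, 4, 5, 4, 3, 2, 1, 0, 5, 6]

theorem uMoves_ok : applyMoves uMoves u0 = some u0.reverse := by decide +kernel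
theorem vMoves_ok : applyMoves vMoves v0 = some v0.reverse := by decide +kernel

theorem pow9_reverse (w : List Nat) : (pow9 w).reverse = pow9 w.reverse := by
  simp [pow9, List.reverse_flatten, List.map_replicate, List.reverse_replicate]

theorem ev_pow9 (s : Nat → G) (w : List Nat) : ev s (pow9 w) = ev s w ^ 9 :=
  Fi23Mult.ev_replicate_flatten s w 9

end moves

/-- non-adjacent pairs, each obtained from an earlier one by symmetry or along an edge -/
def chain : List (Nat × Nat) := [(0, 2), (2, 0), (0, 3), (3, 0), (0, 4), (0, 7), (3, 1), (4, 0), (0, 5), (7, 0), (0, 8), (1, 3), (4, 1), (5, 0), (0, 6), (7, 1), (8, 0), (1, 4), (1, 7), (4, 2), (5, 1), (6, 0), (7, 2), (8, 1), (1, 5), (1, 8), (2, 4), (5, 2), (6, 1), (2, 7), (8, 2), (1, 6), (2, 5), (5, 3), (6, 2), (2, 8), (8, 3), (2, 6), (3, 5), (5, 7), (6, 3), (3, 8), (8, 4), (3, 6), (7, 5), (5, 8), (6, 4), (6, 7), (4, 8), (8, 5), (7, 4), (7, 6), (4, 6), (6, 8), (4, 7), (8, 6)]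

/-- check of the chain from position `k` -/
def chainOk (k : Nat) : Bool :=
  let t := chain.getD k (0, 0)
  decide (t.1 < 9) && decide (t.2 < 9) && !adj t.1 t.2 && (k == 0 || (chain.take k).any fun e =>
    (e.1 == t.2 && e.2 == t.1) || (e.1 == t.1 && adj e.2 t.2))

theorem chain_ok : (List.range 56).all chainOk = true := by decide +kernel

theorem chain_full : ((List.range 9).all fun x => (List.range 9).all fun y =>
    x == y || adj x y || chain.contains (x, y)) = true := by decide +kernel

variable {E : Type} [Group E] (σ : E →* Fi22) (hs : Function.Surjective σ)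
  (hc : σ.ker ≤ Subgroup.center E)

include hc in
theorem ker_central {z : E} (hz : σ z = 1) (a : E) : a * z = z * a :=
  Subgroup.mem_center_iff.mp (hc (σ.mem_ker.mpr hz)) a

include hs hc in
theorem exists_lifts : ∀ n, n ≤ 9 → ∃ l : Nat → E, (∀ g, g < n → σ (l g) = Fi22H.val g) ∧
    (∀ g, g < n → l g * l g = l 0 * l 0) ∧
    (∀ g, g < n → g ≠ 0 → l (parent g) * l g * l (parent g) = l g * l (parent g) * l g)
  | 0, _ => ⟨fun _ => 1, by simp, by simp, by simp⟩
  | 1, _ => ⟨fun _ => Function.surjInv hs (Fi22H.val 0),
      fun g hg => by rw [Nat.lt_one_iff.mp hg]; exact Function.surjInv_eq hs _,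
      fun _ _ => rfl, fun g hg hg0 => absurd (Nat.lt_one_iff.mp hg) hg0⟩
  | n + 2, hn => by
    obtain ⟨l, h1, h2, h3⟩ := exists_lifts (n + 1) (by omega)
    set m := n + 1 with hm
    have hp : parent m < m := by unfold parent; split <;> omega
    have hadj : adj (parent m) m = true := by
      have : ∀ m : Fin 9, (m : Nat) ≠ 0 → adj (parent m) m = true := by decide
      exact this ⟨m, by omega⟩ (by simp only; omega)
    set x := l (parent m)
    set y0 := Function.surjInv hs (Fi22H.val m) with hy0
    set y := x * y0 * x * (x * y0)⁻¹ with hy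
    have hσy : σ y = Fi22H.val m := by
      rw [hy, map_mul, map_mul, map_mul, map_inv, map_mul, h1 _ hp, hy0, Function.surjInv_eq hs,
        val22_conj (by omega) (by omega) hadj]
    have hq : ∀ a, a * (l 0 * l 0) = l 0 * l 0 * a := ker_central σ hc (by
      rw [map_mul, h1 0 (by omega), val22_sq (by omega)])
    have hbraid : x * y * x = y * x * y := Fi23Mult.braid_of_conj (y0 := y0) (w := y0⁻¹ * y) hy
      (mul_inv_cancel_left _ _).symm (ker_central σ hc (by
        rw [map_mul, map_inv, hσy, hy0, Function.surjInv_eq hs, inv_mul_cancel]))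
    have hsq : y * y = l 0 * l 0 := by
      have : y * y = x * y0 * (x * x) * (x * y0)⁻¹ := by simp only [hy]; group
      rw [this, h2 _ hp, hq, mul_inv_cancel_right]
    refine ⟨Function.update l m y, fun g hg => ?_, fun g hg => ?_, fun g hg hg0 => ?_⟩
    · rcases eq_or_ne g m with rfl | hne
      · rwa [Function.update_self]
      · rw [Function.update_of_ne hne]; exact h1 g (by omega)
    · rw [Function.update_of_ne (show (0 : Nat) ≠ m by omega)]
      rcases eq_or_ne g m with rfl | hne
      · rwa [Function.update_self]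
      · rw [Function.update_of_ne hne]; exact h2 g (by omega)
    · rcases eq_or_ne g m with rfl | hne
      · rw [Function.update_self, Function.update_of_ne (show parent m ≠ m by omega)]
        exact hbraid
      · have hpg : parent g < g := by unfold parent; split <;> omega
        rw [Function.update_of_ne hne, Function.update_of_ne (show parent g ≠ m by omega)]
        exact h3 g (by omega) hg0

include hs hc in
/-- The normalised lifts: involutions with the Coxeter relations, the first E7 relation exact and
the second one of square one. -/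
theorem exists_normalised : ∃ s : Nat → E, (∀ g, σ (s g) = Fi22H.val g) ∧ (∀ g, 9 ≤ g → s g = 1) ∧
    (∀ g, s g * s g = 1) ∧
    (∀ x y, x < 9 → y < 9 → adj x y = true → s x * s y * s x = s y * s x * s y) ∧
    (∀ x y, x < 9 → y < 9 → adj x y = false → s x * s y = s y * s x) ∧
    ev s (pow9 u0) = 1 ∧ ev s (pow9 v0) * ev s (pow9 v0) = 1 := by
  classical
  obtain ⟨l', h1', h2', h3'⟩ := exists_lifts σ hs hc 9 le_rfl
  set l : Nat → E := fun g => if g < 9 then l' g else 1 with hl
  have hσ : ∀ g, σ (l g) = Fi22H.val g := fun g => by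
    simp only [hl]; split
    · exact h1' g ‹_›
    · rw [map_one, val22_ge (by omega)]
  set q := l 0 * l 0 with hqdef
  have h2 : ∀ g, g < 9 → l g * l g = q := fun g hg => by
    simp only [hqdef, hl, if_pos hg, if_pos (show 0 < 9 by omega)]; exact h2' g hg
  have hq : ∀ a, a * q = q * a := ker_central σ hc (by rw [map_mul, hσ, val22_sq (by omega)])
  have hedge : ∀ x y, x < 9 → y < 9 → adj x y = true → l x * l y * l x = l y * l x * l y := by
    intro x y hx hy h
    have hpar : ∀ x y : Fin 9, adj x y = true →
        ((x : Nat) ≠ 0 ∧ parent x = y) ∨ ((y : Nat) ≠ 0 ∧ parent y = x) := by decide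
    simp only [hl, if_pos hx, if_pos hy]
    rcases hpar ⟨x, hx⟩ ⟨y, hy⟩ h with ⟨h0, e⟩ | ⟨h0, e⟩
    · simp only at e h0; rw [← e]; exact (h3' x hx h0).symm
    · simp only at e h0; rw [← e]; exact h3' y hy h0
  set c := Fi23Mult.com (l 0) (l 2) with hcdef
  have hcom : ∀ x y, x < 9 → y < 9 → adj x y = false →
      ∀ a, a * Fi23Mult.com (l x) (l y) = Fi23Mult.com (l x) (l y) * a := fun x y hx hy h =>
    ker_central σ hc (by
      rw [Fi23Mult.com, map_mul, map_mul, map_mul, map_inv, map_inv, hσ, hσ, val22_comm hx hy h,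
        mul_inv_cancel_right, mul_inv_cancel])
  have hcc := hcom 0 2 (by omega) (by omega) (by decide)
  rw [← hcdef] at hcc
  have hc2 : c * c = 1 := Fi23Mult.com_sq (h2 2 (by omega)) hq (hcom 0 2 (by omega) (by omega) (by decide))
  have hchain : ∀ k, k < 56 →
      Fi23Mult.com (l (chain.getD k (0, 0)).1) (l (chain.getD k (0, 0)).2) = c := by
    intro k
    induction k using Nat.strong_induction_on with
    | _ k ih =>
      intro hk
      have hok := List.all_eq_true.mp chain_ok k (List.mem_range.mpr hk)
      rcases Nat.eq_zero_or_pos k with rfl | hkpos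
      · rfl
      simp only [chainOk, Bool.and_eq_true, decide_eq_true_eq, Bool.or_eq_true, beq_iff_eq,
        List.any_eq_true, Bool.not_eq_true'] at hok
      obtain ⟨⟨⟨hx, hy⟩, hnadj⟩, rfl | ⟨e, he, hcase⟩⟩ := hok
      · omega
      obtain ⟨i, hi, rfl⟩ := List.mem_iff_getElem.mp he
      have hik : i < k := by rw [List.length_take] at hi; omega
      have hIH := ih i hik (by omega)
      have hok' := List.all_eq_true.mp chain_ok i (List.mem_range.mpr (by omega))
      simp only [chainOk, Bool.and_eq_true, decide_eq_true_eq, Bool.not_eq_true'] at hok'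
      obtain ⟨⟨⟨hx', hy'⟩, hnadj'⟩, -⟩ := hok'
      have he' : (chain.take k)[i] = chain.getD i (0, 0) := by
        rw [List.getElem_take, List.getD_eq_getElem _ _ (by
          simp only [show chain.length = 56 from rfl]; omega)]
      rw [he'] at hcase
      set t := chain.getD k (0, 0)
      set e := chain.getD i (0, 0)
      rcases hcase with ⟨e1, e2⟩ | ⟨e1, e2⟩
      · have : Fi23Mult.com (l t.1) (l t.2) = (Fi23Mult.com (l e.1) (l e.2))⁻¹ := by
          rw [← e1, ← e2]; simp [Fi23Mult.com, mul_assoc]
        rw [this, hIH, inv_eq_of_mul_eq_one_right hc2]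
      · rw [← hIH, ← e1]
        refine Fi23Mult.com_transport (u := l e.2 * l t.2)
          (k := (l e.1)⁻¹ * (l e.2 * l t.2 * l e.1 * (l e.2 * l t.2)⁻¹))
          (Fi23Mult.conj_of_braid (hedge _ _ hy' hy e2)).symm (mul_inv_cancel_left _ _).symm
          (ker_central σ hc ?_) (hcom _ _ hx' hy' hnadj')
        simp only [map_mul, map_inv, hσ]
        have a1 := val22_comm hx' hy' hnadj'
        have a2 : Fi22H.val e.1 * Fi22H.val t.2 = Fi22H.val t.2 * Fi22H.val e.1 :=
          val22_comm hx' hy (e1 ▸ hnadj)
        have a3 : Fi22H.val e.2 * Fi22H.val t.2 * Fi22H.val e.1 =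
            Fi22H.val e.1 * (Fi22H.val e.2 * Fi22H.val t.2) := by
          rw [mul_assoc, ← a2, ← mul_assoc, ← a1, mul_assoc]
        rw [a3, mul_inv_cancel_right, inv_mul_cancel]
  have hall : ∀ x y, x < 9 → y < 9 → adj x y = false → x ≠ y → Fi23Mult.com (l x) (l y) = c := by
    intro x y hx hy h hne
    have h' := List.all_eq_true.mp (List.all_eq_true.mp chain_full x (List.mem_range.mpr hx)) y
      (List.mem_range.mpr hy)
    simp only [Bool.or_eq_true, beq_iff_eq, h, Bool.false_eq_true, or_false,
      List.contains_iff_mem] at h'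
    rcases h' with rfl | h'
    · exact absurd rfl hne
    · obtain ⟨k, hk, he⟩ := List.mem_iff_getElem.mp h'
      have := hchain k hk
      rw [List.getD_eq_getElem _ _ hk, he] at this
      exact this
  have hev : ∀ w, σ (ev l w) = el22 w := by
    intro w
    induction w with
    | nil => simp [ev, el22]
    | cons g w ih => rw [ev, map_mul, ih, hσ, el22, el22, ev]
  have hcone : c = 1 := by
    have hk : ∀ g ∈ pow9 k0, l 0 * l g = c * l g * l 0 := by
      intro g hg
      have hmem : g ∈ k0 := by
        obtain ⟨w, hw, hgw⟩ := List.mem_flatten.mp hg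
        exact List.eq_of_mem_replicate hw ▸ hgw
      have hh : ∀ g ∈ k0, g < 9 ∧ adj 0 g = false ∧ 0 ≠ g := by decide
      obtain ⟨hg9, hna, hne⟩ := hh g hmem
      rw [← hall 0 g (by omega) hg9 hna hne, Fi23Mult.com]
      group
    have h := Fi23Mult.ev_com l (l 0) c hcc (pow9 k0) hk
    have hz := ker_central σ hc (show σ (ev l (pow9 k0)) = 1 by rw [hev, el22_eq_one rel_k])
    rw [hz (l 0), show (pow9 k0).length = 63 from rfl, mul_assoc] at h
    have h63 : c ^ 63 = 1 := mul_eq_right.mp h.symm
    rwa [show c ^ 63 = (c * c) ^ 31 * c by rw [← sq, ← pow_mul, ← pow_succ], hc2, one_pow,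
      one_mul] at h63
  have hcomm : ∀ x y, x < 9 → y < 9 → adj x y = false → l x * l y = l y * l x := by
    intro x y hx hy h
    rcases eq_or_ne x y with rfl | hne
    · rfl
    · have h1 := (hall x y hx hy h hne).trans hcone
      rwa [Fi23Mult.com, mul_inv_eq_one, mul_inv_eq_iff_eq_mul] at h1
  set zU := ev l (pow9 u0) with hzU
  have hzc : ∀ a, a * zU = zU * a := ker_central σ hc (by rw [hzU, hev, el22_eq_one rel_u])
  have hlt9 : ∀ g ∈ pow9 u0, g < 9 := by decide
  have hzsq : zU * zU = q ^ 63 := by
    have h := Fi23Mult.ev_mul_ev_reverse l q hq (pow9 u0) fun g hg => h2 g (hlt9 g hg)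
    rw [pow9_reverse, ev_pow9 l u0.reverse, moves_sound l hcomm uMoves u0 _ uMoves_ok (by decide) zU
      (ev_pow9 l u0).symm hzc] at h
    exact h
  set w := zU⁻¹ * q ^ 31 with hw
  have hwσ : σ w = 1 := by
    rw [hw, map_mul, map_inv, map_pow, hzU, hev, el22_eq_one rel_u, map_mul, hσ,
      val22_sq (by omega)]
    simp
  have hwc := ker_central σ hc hwσ
  have hqz : Commute q zU := hzc q
  have hwsq : q * (w * w) = 1 := by
    have e : w * w = (zU * zU)⁻¹ * q ^ 62 := by
      rw [hw, ← sq, ((hqz.pow_left 31).inv_right.symm).mul_pow, inv_pow, ← pow_mul, sq]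
    rw [e, hzsq, ← mul_assoc, ((Commute.self_pow q 63).inv_right).eq, mul_assoc, ← pow_succ',
      inv_mul_cancel]
  set s : Nat → E := fun g => if g < 9 then l g * w else 1 with hs'
  have hsσ : ∀ g, σ (s g) = Fi22H.val g := fun g => by
    simp only [hs']; split
    · rw [map_mul, hσ, hwσ, mul_one]
    · rw [map_one, val22_ge (by omega)]
  have hmul : ∀ x y, x < 9 → y < 9 → s x * s y = l x * l y * (w * w) := by
    intro x y hx hy
    simp only [hs', if_pos hx, if_pos hy]
    rw [mul_assoc (l x), ← mul_assoc w, ← hwc (l y)]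
    simp only [mul_assoc]
  have hssq : ∀ g, s g * s g = 1 := fun g => by
    by_cases hg : g < 9
    · rw [hmul g g hg hg, h2 g hg, hwsq]
    · simp [hs', hg]
  have hscomm : ∀ x y, x < 9 → y < 9 → adj x y = false → s x * s y = s y * s x :=
    fun x y hx hy h => by rw [hmul x y hx hy, hmul y x hy hx, hcomm x y hx hy h]
  have hsev : ∀ u : List Nat, (∀ g ∈ u, g < 9) → ev s u = ev l u * w ^ u.length := by
    intro u hu
    induction u with
    | nil => simp [ev]
    | cons g u ih =>
      rw [ev, ev, ih fun a ha => hu a (List.mem_cons_of_mem _ ha), List.length_cons, pow_succ]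
      simp only [hs', if_pos (hu g (List.mem_cons_self ..))]
      have hcw : Commute (l g) w := hwc _
      simp only [mul_assoc]
      rw [← mul_assoc (w ^ _) (l g), ← (hcw.pow_right _).eq]
      simp only [mul_assoc]
  refine ⟨s, hsσ, fun g hg => by simp [hs', Nat.not_lt.mpr hg], hssq, fun x y hx hy h => ?_, hscomm, ?_, ?_⟩
  · have e : ∀ a b, a < 9 → b < 9 → s a * s b * s a = l a * l b * l a * (w * w * w) := by
      intro a b ha hb
      rw [hmul a b ha hb]
      simp only [hs', if_pos ha]
      calc l a * l b * (w * w) * (l a * w) = l a * l b * ((w * w) * l a) * w := by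
            simp only [mul_assoc]
        _ = l a * l b * (l a * (w * w)) * w := by
            rw [show w * w * l a = l a * (w * w) by
              rw [mul_assoc, ← hwc (l a), ← mul_assoc, ← hwc (l a), mul_assoc]]
        _ = _ := by simp only [mul_assoc]
    rw [e x y hx hy, e y x hy hx, hedge x y hx hy h]
  · rw [hsev _ hlt9, show (pow9 u0).length = 63 from rfl, ← hzU, hw,
      ((hqz.pow_left 31).inv_right.symm).mul_pow, ← pow_mul, inv_pow, ← mul_assoc]
    have h63 : zU ^ 63 = q ^ 1953 * zU := by
      rw [show q ^ 1953 = (q ^ 63) ^ 31 by rw [← pow_mul], ← hzsq, ← sq, ← pow_mul, ← pow_succ]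
    rw [h63, mul_inv_rev, mul_inv_cancel_left, inv_mul_cancel]
  · have hz : ∀ a, a * ev s (pow9 v0) = ev s (pow9 v0) * a := ker_central σ hc (by
      have : ∀ u, σ (ev s u) = el22 u := by
        intro u
        induction u with
        | nil => simp [ev, el22]
        | cons g u ih => rw [ev, map_mul, ih, hsσ, el22, el22, ev]
      rw [this, el22_eq_one rel_v])
    have h := Fi23Mult.ev_mul_ev_reverse s 1 (fun a => by simp) (pow9 v0) fun g _ => hssq g
    rw [pow9_reverse, ev_pow9 s v0.reverse, moves_sound s hscomm vMoves v0 _ vMoves_ok (by decide) _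
      (ev_pow9 s v0).symm hz, one_pow] at h
    exact h

end Cfsg.Agent.H55.Fi22M
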