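import Cfsg.Agent.H82.Mult
import Cfsg.Agent.H16.CosetLift
import Cfsg.Agent.H16.Fi23MACheck
import Cfsg.Agent.H16.Fi23MT2Check
import Cfsg.Agent.H16.Fi23MT3Check
import Cfsg.Agent.H16.Fi23MT4Check
import Cfsg.Agent.H16.Fi23MT5Check
import Cfsg.Agent.H16.Fi23MT6Check
import Cfsg.Agent.H16.Fi23MT7Check
import Cfsg.Agent.H55.Fi22M.Lift22
import Cfsg.Agent.H55.Fi22M.Base22

/-! The kernel of a stem extension of Fi22 has order at most six. -/

set_option autoImplicit false
set_option maxRecDepth 8000

namespace Cfsg.Agent.H55.Fi22M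

open Cfsg.Spor H16 H16.EnumData H16.CoxEnum

/-- the Coxeter relator of two letters -/
def coxWord22 (x y : Nat) : List Nat :=
  if x = y then [x, x] else if adj x y then [y, x, y, x, y, x] else [y, x, y, x]

/-- the Coxeter relators -/
def coxWords22 : List (List Nat) :=
  (List.range 9).flatMap fun x => (List.range 9).map fun y => coxWord22 x y

/-- the commutator of the spider relator with a generator -/
def c22 : List Nat := r10 ++ [2] ++ r10.reverse ++ [2]

theorem stepA : checkStep Fi23MA.weakData (coxWords22 ++ [c22]) [1,2,3,4,5,7,8] [2,3,4,5,7,8] = true := by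
  decide +kernel

theorem runA : Fi23MA.weakData.run (List.replicate 30 [6,5,2,4,3,2,0,1,2]).flatten 0 = 0 := by
  decide +kernel

theorem runA_lt : ∀ g ∈ (List.replicate 30 [6,5,2,4,3,2,0,1,2]).flatten,
    g < Fi23MA.weakData.ng := by
  intro g hg
  exact Nat.le_of_ble_eq_true (List.all_eq_true.mp
    (show ((List.replicate 30 [6,5,2,4,3,2,0,1,2]).flatten).all
      (fun g => Nat.ble (Nat.succ g) Fi23MA.weakData.ng) = true by decide +kernel) g hg)

theorem t6 : checkStep Fi23MT2.weakData coxWords22 [2,3,4,5,7,8] [2,3,4,5,7] = true := by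
  decide +kernel

theorem t5 : checkStep Fi23MT3.weakData coxWords22 [2,3,4,5,7] [2,3,4,7] = true := by decide +kernel

theorem t4 : checkStep Fi23MT4.weakData coxWords22 [2,3,4,7] [2,3,4] = true := by decide +kernel

theorem t3 : checkStep Fi23MT5.weakData coxWords22 [2,3,4] [2,3] = true := by decide +kernel

theorem t2 : checkStep Fi23MT6.weakData coxWords22 [2,3] [2] = true := by decide +kernel

theorem t1 : checkStep Fi23MT7.weakData coxWords22 [2] [] = true := by decide +kernel

theorem prod6 : Fi23MT2.weakData.n * (Fi23MT3.weakData.n * (Fi23MT4.weakData.n *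
    (Fi23MT5.weakData.n * (Fi23MT6.weakData.n * (Fi23MT7.weakData.n * 1))))) = 51840 := by
  decide +kernel

theorem base_rel : (Fi22H.data.words.take Fi22H.data.nbase).all
    (fun w => relOK (coxWords22 ++ [r10, pow9 u0, pow9 v0]) w) = true := by decide +kernel

theorem base_lt22 : (Fi22H.data.words.take Fi22H.data.nbase).all
    (fun w => w.all fun g => Nat.ble (g + 1) 9) = true := by decide +kernel

/-- kernel elements in a small subgroup with a large image have small order -/
theorem orderOf_lt_of_card {E F : Type} [Group E] [Finite E] [Group F] (S : Subgroup E) (σ : E →* F)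
    {N L k : ℕ} (hN : Nat.card S ≤ N) (hL : L ≤ Nat.card (S.map σ)) (hlt : N < k * L) {z : E}
    (hz : z ∈ S) (hσ : σ z = 1) : orderOf z < k := by
  let f : S →* F := σ.comp S.subtype
  have hrange : f.range = S.map σ := by rw [MonoidHom.range_comp, Subgroup.range_subtype]
  have hcard := Subgroup.card_eq_card_quotient_mul_card_subgroup f.ker
  rw [Nat.card_congr (QuotientGroup.quotientKerEquivRange f).toEquiv, hrange] at hcard
  have hzk : orderOf (⟨⟨z, hz⟩, hσ⟩ : f.ker) ≤ Nat.card f.ker := orderOf_le_card
  rw [← Subgroup.orderOf_coe, ← Subgroup.orderOf_coe] at hzk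
  by_contra hk
  have h1 : k * L ≤ Nat.card (S.map σ) * Nat.card f.ker := by
    rw [mul_comm k L]
    exact Nat.mul_le_mul hL ((Nat.le_of_not_lt hk).trans hzk)
  omega

theorem card_ker_le_six {E : Type} [Group E] [Finite E] (σ : E →* Fi22)
    (hσ : Cfsg.IsStemExtension σ) : Nat.card σ.ker ≤ 6 := by
  obtain ⟨hs, hc, hcom⟩ := hσ
  obtain ⟨s, hsσ, hout, hsq, hbr, hcm, hu, hv⟩ := exists_normalised σ hs hc
  have hev : ∀ w, σ (ev s w) = el22 w := by
    intro w
    induction w with
    | nil => simp [ev, el22]
    | cons g w ih => rw [ev, map_mul, ih, hsσ, el22, el22, ev]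
  set zR := ev s r10 with hzR
  set zV := ev s (pow9 v0) with hzV
  have hRσ : σ zR = 1 := by rw [hzR, hev, el22_eq_one rel_r]
  have hVσ : σ zV = 1 := by rw [hzV, hev, el22_eq_one rel_v]
  have hRc := ker_central σ hc hRσ
  have hW0 : WordGroup E s coxWords22 :=
    { sq := hsq
      base_one := fun w hw => by
        simp only [coxWords22, List.mem_flatMap, List.mem_map, List.mem_range] at hw
        obtain ⟨x, hx, y, hy, rfl⟩ := hw
        have sx := hsq x
        have sy := hsq y
        unfold coxWord22
        split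
        · simp [ev, sx]
        rcases hb : adj x y with _ | _
        · have h := hcm x y hx hy hb
          simp only [Bool.false_eq_true, if_false, ev, one_mul]
          calc s x * s y * s x * s y = s y * s x * s x * s y := by rw [h]
            _ = 1 := by rw [mul_assoc _ (s x) (s x), sx, mul_one, sy]
        · have h := hbr x y hx hy hb
          simp only [if_true, ev, one_mul]
          rw [h, mul_assoc _ (s y) (s y), sy, mul_one, mul_assoc _ (s x) (s x), sx, mul_one, sy] }
  have hWA : WordGroup E s (coxWords22 ++ [c22]) :=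
    { sq := hsq
      base_one := fun w hw => by
        rcases List.mem_append.mp hw with h | h
        · exact hW0.base_one w h
        · rw [List.mem_singleton.mp h, c22, ev_append, ev_append, ev_append, ev_reverse _ hsq]
          simp only [ev, one_mul]
          show s 2 * (zR⁻¹ * (s 2 * zR)) = 1
          rw [hRc (s 2), inv_mul_cancel_left, hsq] }
  have hmem : zR ^ 3 ∈ letterSub s [2,3,4,5,7,8] := by
    have h := mem_letterSub_of_run hWA Fi23MA.valid stepA _ runA_lt runA
    rw [show ((List.replicate 30 [6,5,2,4,3,2,0,1,2]).flatten).map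
        (fun g => ([1,2,3,4,5,7,8] : List Nat).getD g 0) =
        (List.replicate 3 r10).flatten by decide +kernel, Fi23Mult.ev_replicate_flatten] at h
    exact h
  have hcard : Nat.card (letterSub s [2,3,4,5,7,8]) ≤ 51840 := by
    have h := tower_step hW0 Fi23MT2.valid t6 (tower_step hW0 Fi23MT3.valid t5
      (tower_step hW0 Fi23MT4.valid t4 (tower_step hW0 Fi23MT5.valid t3
        (tower_step hW0 Fi23MT6.valid t2 (tower_step hW0 Fi23MT7.valid t1 (letterSub_nil _))))))
    exact h.2.trans_eq prod6
  have hlow : 51840 ≤ Nat.card ((letterSub s [2,3,4,5,7,8]).map σ) := by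
    rw [show (letterSub s [2,3,4,5,7,8]).map σ = letterSub Fi22H.val [2,3,4,5,7,8] by
      rw [letterSub, letterSub, MonoidHom.map_closure]
      congr 1
      ext x
      simp only [Set.mem_image, Set.mem_setOf_eq]
      constructor
      · rintro ⟨_, ⟨g, hg, rfl⟩, rfl⟩; exact ⟨g, hg, (hsσ g).symm⟩
      · rintro ⟨g, hg, rfl⟩; exact ⟨_, ⟨g, hg, rfl⟩, hsσ g⟩]
    refine le_trans ?_ (Nat.card_le_card_of_surjective _
      ((letterSub Fi22H.val [2,3,4,5,7,8]).equivMapOfInjective _
        Fi22Order.card_and_faithful.2).surjective)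
    rw [← levels_prod]
    refine Fi22H.theModel.levelsProd_le_letters levels_ok fun L hL w hw g hg => ?_
    have h := List.all_eq_true.mp (List.all_eq_true.mp
      (List.all_eq_true.mp levels_letters L hL) w hw) g hg
    simpa [List.contains_iff_mem] using h
  have hR3 : zR ^ 3 = 1 := by
    have h := orderOf_lt_of_card (letterSub s [2,3,4,5,7,8]) σ hcard hlow (k := 2) (by norm_num) hmem
      (by rw [map_pow, hRσ, one_pow])
    have hpos : 0 < orderOf (zR ^ 3) := orderOf_pos _
    exact orderOf_eq_one_iff.mp (by omega)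
  have hV2 : zV ^ 2 = 1 := by rw [sq]; exact hv
  have hcomRV : Commute zR zV := (hRc zV).symm
  set z := zR * zV with hz
  have hz6 : z ^ 6 = 1 := by
    rw [hz, hcomRV.mul_pow, show (6 : ℕ) = 3 * 2 from rfl, pow_mul, hR3, one_pow, one_mul,
      show (3 * 2 : ℕ) = 2 * 3 from rfl, pow_mul, hV2, one_pow]
  have hRz : zR ∈ Subgroup.zpowers z := by
    have : z ^ 4 = zR := by
      rw [hz, hcomRV.mul_pow, show zR ^ 4 = zR ^ 3 * zR from pow_succ zR 3, hR3, one_mul,
        show (4 : ℕ) = 2 * 2 from rfl, pow_mul, hV2, one_pow, mul_one]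
    rw [← this]; exact Subgroup.pow_mem _ (Subgroup.mem_zpowers z) 4
  have hVz : zV ∈ Subgroup.zpowers z := by
    have : z ^ 3 = zV := by
      rw [hz, hcomRV.mul_pow, hR3, one_mul, show (3 : ℕ) = 2 + 1 from rfl, pow_succ, hV2, one_mul]
    rw [← this]; exact Subgroup.pow_mem _ (Subgroup.mem_zpowers z) 3
  set Zs := Subgroup.zpowers z
  have hZc : Zs ≤ Subgroup.center E :=
    Subgroup.zpowers_le.mpr (hc (σ.mem_ker.mpr (by rw [hz, map_mul, hRσ, hVσ, one_mul])))
  have hZn : Zs.Normal := ⟨fun n hn g => by
    rw [Subgroup.mem_center_iff.mp (hZc hn) g, mul_inv_cancel_right]; exact hn⟩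
  -- the section
  let b : Nat → E ⧸ Zs := fun g => QuotientGroup.mk' Zs (s g)
  have hevb : ∀ w, ev b w = QuotientGroup.mk' Zs (ev s w) := by
    intro w
    induction w with
    | nil => simp [ev]
    | cons g w ih => rw [ev, ev, ih, map_mul]
  have hWb : WordGroup (E ⧸ Zs) b (coxWords22 ++ [r10, pow9 u0, pow9 v0]) :=
    { sq := fun g => by simp only [b]; rw [← map_mul, hsq, map_one]
      base_one := fun w hw => by
        rw [hevb]
        rcases List.mem_append.mp hw with h | h
        · rw [hW0.base_one w h, map_one]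
        · simp only [List.mem_cons, List.not_mem_nil, or_false] at h
          rcases h with rfl | rfl | rfl
          · exact (QuotientGroup.eq_one_iff _).mpr hRz
          · rw [hu, map_one]
          · exact (QuotientGroup.eq_one_iff _).mpr hVz }
  let f : Fi22.Gen → E ⧸ Zs := fun x => b (Fi22H.gens.idxOf x)
  have hrel : ∀ r ∈ coxRelators Fi22.edges ∪ {r | r ∈ Fi22.extra}, FreeGroup.lift f r = 1 := by
    refine lift_rel_of_base Fi22H.presCheck f (fun x => hWb.sq _) fun w hw => ?_
    have hlt : ∀ g ∈ w, g < Fi22H.gens.length := fun g hg =>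
      Nat.le_of_ble_eq_true (List.all_eq_true.mp (List.all_eq_true.mp base_lt22 w hw) g hg)
    rw [show f = fun x => b (Fi22H.gens.idxOf x) from rfl,
      ev_numGen_comp Fi22H.gens_nodup b w hlt]
    exact ev_of_relOK b hWb.sq hWb.base_one (List.all_eq_true.mp base_rel w hw)
  let sec : Fi22 →* E ⧸ Zs := PresentedGroup.toGroup hrel
  have hsec : ∀ g, g < 9 → sec (Fi22H.val g) = b g := by
    intro g hg
    have hgl : g < Fi22H.gens.length := hg
    simp only [Fi22H.val, numGen, List.getElem?_eq_getElem hgl]
    rw [show sec = PresentedGroup.toGroup hrel from rfl, PresentedGroup.toGroup.of]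
    simp only [f, List.Nodup.idxOf_getElem Fi22H.gens_nodup]
  have hsec' : ∀ g, sec (Fi22H.val g) = b g := by
    intro g
    by_cases hg : g < 9
    · exact hsec g hg
    · simp only [b]
      rw [val22_ge (by omega), hout g (by omega), map_one, map_one]
  have hle : commutator E ≤ Subgroup.closure (Set.range s) := by
    refine (H82.commutator_le_of_forall_exists_center _ fun x => ?_).trans (Subgroup.commutator_le_self _)
    have hmap : (Subgroup.closure (Set.range s)).map σ = ⊤ := by
      rw [MonoidHom.map_closure, ← Set.range_comp, ← Fi22H.theModel.gen_closure]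
      congr 2
      funext g
      exact hsσ g
    obtain ⟨y, hy, hyx⟩ : σ x ∈ (Subgroup.closure (Set.range s)).map σ := hmap ▸ Subgroup.mem_top _
    exact ⟨y, hy, hc (by rw [σ.mem_ker, map_mul, map_inv, hyx, inv_mul_cancel])⟩
  have key : ∀ y ∈ Subgroup.closure (Set.range s), sec (σ y) = QuotientGroup.mk' Zs y := by
    intro y hy
    induction hy using Subgroup.closure_induction with
    | mem _ h => obtain ⟨g, rfl⟩ := h; rw [hsσ, hsec']
    | one => simp
    | mul a c _ _ ha hc => simp [ha, hc]
    | inv a _ ha => simp [ha]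
  have hkle : σ.ker ≤ Zs := fun x hx => by
    have h := key x (hle (hcom hx))
    rw [σ.mem_ker.mp hx, map_one] at h
    exact (QuotientGroup.eq_one_iff x).mp h.symm
  refine (Subgroup.card_le_of_le hkle).trans ?_
  rw [Nat.card_zpowers]
  exact orderOf_le_of_pow_eq_one (by norm_num) hz6

end Cfsg.Agent.H55.Fi22M
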