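import Cfsg.Agent.H82.Mult
import Cfsg.Agent.H55.Fi22M.Triple
import Cfsg.Agent.H55.Fi22M.Double
import Cfsg.Agent.H55.Fi22M.Upper

/-! The six-fold cover of Fi22 and the multiplier. -/

set_option autoImplicit false

namespace Cfsg.Agent.H55.Fi22M

open Cfsg.Spor

variable {G H : Type} [Group G] [Group H] (A : CoverGens G) (B : CoverGens H)

/-- The fibre product of two covers. -/
noncomputable abbrev fib : Subgroup (A.Gam × B.Gam) :=
  MonoidHom.eqLocus (A.sigma.comp (MonoidHom.fst _ _)) (B.sigma.comp (MonoidHom.snd _ _))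

/-- The map to Fi22. -/
noncomputable def fibMap : fib A B →* Fi22 :=
  (A.sigma.comp (MonoidHom.fst _ _)).comp (fib A B).subtype

theorem fst_surjective : Function.Surjective ((MonoidHom.fst _ _).comp (fib A B).subtype) := by
  intro x
  obtain ⟨y, hy⟩ := B.sigma_surjective (A.sigma x)
  exact ⟨⟨(x, y), hy.symm⟩, rfl⟩

theorem snd_surjective : Function.Surjective ((MonoidHom.snd _ _).comp (fib A B).subtype) := by
  intro y
  obtain ⟨x, hx⟩ := A.sigma_surjective (B.sigma y)
  exact ⟨⟨(x, y), hx⟩, rfl⟩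

theorem fibMap_surjective : Function.Surjective (fibMap A B) := fun v => by
  obtain ⟨x, hx⟩ := A.sigma_surjective v
  obtain ⟨p, hp⟩ := fst_surjective A B x
  exact ⟨p, by rw [fibMap, MonoidHom.comp_apply, MonoidHom.comp_apply, ← hx, ← hp]; rfl⟩

theorem mem_fibMap_ker (p : fib A B) :
    p ∈ (fibMap A B).ker ↔ p.1.1 ∈ A.sigma.ker ∧ p.1.2 ∈ B.sigma.ker := by
  constructor
  · intro h
    exact ⟨h, MonoidHom.mem_ker.mpr (p.2.symm.trans h)⟩
  · exact fun h => h.1

/-- The kernel is the product of the two kernels. -/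
noncomputable def kerEquiv : (fibMap A B).ker ≃* A.sigma.ker × B.sigma.ker where
  toFun p := (⟨p.1.1.1, ((mem_fibMap_ker A B p.1).mp p.2).1⟩,
    ⟨p.1.1.2, ((mem_fibMap_ker A B p.1).mp p.2).2⟩)
  invFun q := ⟨⟨(q.1.1, q.2.1), (MonoidHom.mem_ker.mp q.1.2).trans (MonoidHom.mem_ker.mp q.2.2).symm⟩,
    (mem_fibMap_ker A B _).mpr ⟨q.1.2, q.2.2⟩⟩
  left_inv _ := rfl
  right_inv _ := rfl
  map_mul' _ _ := rfl

theorem finite_fib : Finite (fib A B) := by
  have := A.finite_Gam
  have := B.finite_Gam
  infer_instance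

theorem card_fib : Nat.card (fib A B) = A.p * B.p * Nat.card Fi22 := by
  rw [← Subgroup.card_mul_index (fibMap A B).ker, Nat.card_congr (kerEquiv A B).toEquiv, Nat.card_prod,
    A.card_ker, B.card_ker, Subgroup.index_ker, MonoidHom.range_eq_top.mpr (fibMap_surjective A B),
    Subgroup.card_top]

theorem fib_perfect (hcop : Nat.Coprime A.p B.p) : commutator (fib A B) = ⊤ := by
  have := finite_fib A B
  have h1 : Nat.card A.Gam ∣ Nat.card (commutator (fib A B)) := by
    have := (commutator (fib A B)).card_map_dvd ((MonoidHom.fst _ _).comp (fib A B).subtype)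
    rwa [commutator_def, Subgroup.map_commutator, Subgroup.map_top_of_surjective _ (fst_surjective A B),
      ← commutator_def, A.commutator_eq_top, Subgroup.card_top] at this
  have h2 : Nat.card B.Gam ∣ Nat.card (commutator (fib A B)) := by
    have := (commutator (fib A B)).card_map_dvd ((MonoidHom.snd _ _).comp (fib A B).subtype)
    rwa [commutator_def, Subgroup.map_commutator, Subgroup.map_top_of_surjective _ (snd_surjective A B),
      ← commutator_def, B.commutator_eq_top, Subgroup.card_top] at this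
  rw [A.card_Gam] at h1
  rw [B.card_Gam] at h2
  refine Subgroup.eq_top_of_le_card _ (Nat.le_of_dvd Nat.card_pos ?_)
  obtain ⟨c, hc⟩ := dvd_trans (Dvd.intro_left _ rfl) h1
  rw [hc, mul_comm A.p] at h1
  rw [hc, mul_comm B.p] at h2
  rw [card_fib, hc, mul_comm]
  exact Nat.mul_dvd_mul_left _ (hcop.mul_dvd_of_dvd_of_dvd
    (Nat.dvd_of_mul_dvd_mul_left Nat.card_pos h1) (Nat.dvd_of_mul_dvd_mul_left Nat.card_pos h2))

theorem multiplier : Cfsg.HasCyclicSchurMultiplier Fi22 6 := by
  have := finite_fib double triple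
  refine H82.hasCyclicSchurMultiplier_of_card (σ := fibMap double triple)
    ⟨fibMap_surjective _ _, ?_, ?_⟩ ?_ ?_ fun Δ _ _ τ hτ => card_ker_le_six τ hτ
  · intro p hp
    obtain ⟨h1, h2⟩ := (mem_fibMap_ker _ _ p).mp hp
    rw [double.sigma_ker] at h1
    rw [triple.sigma_ker] at h2
    rw [Subgroup.mem_center_iff]
    intro q
    exact Subtype.ext (Prod.ext (Subgroup.mem_center_iff.mp (double.zz_central h1) q.1.1)
      (Subgroup.mem_center_iff.mp (triple.zz_central h2) q.1.2))
  · rw [fib_perfect double triple (show Nat.Coprime 2 3 by norm_num)]; exact le_top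
  · refine (kerEquiv double triple).isCyclic.mpr ?_
    have : Fact (Nat.Prime double.p) := ⟨double.hp⟩
    have : Fact (Nat.Prime triple.p) := ⟨triple.hp⟩
    exact Group.isCyclic_prod_iff.mpr ⟨isCyclic_of_prime_card double.card_ker,
      isCyclic_of_prime_card triple.card_ker, by
        rw [double.card_ker, triple.card_ker]; exact (show Nat.Coprime 2 3 by norm_num)⟩
  · rw [Nat.card_congr (kerEquiv double triple).toEquiv, Nat.card_prod, double.card_ker, triple.card_ker]
    rfl

end Cfsg.Agent.H55.Fi22M
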